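-- OTSM / TWOM (S5987) package [EVENM]: wrapper of the TWOP determinant trick.
import Mathlib
import Cfsg.Agent.Lib.Helper31.OTSM.TwoDefs
import Cfsg.Agent.Lib.Helper37.TwoP.Even

set_option autoImplicit false

namespace Cfsg.Agent.Lib.Helper37.OTSM

universe u

/-- **[EVENM]** -/
theorem pkgEvenM : Cfsg.Agent.Lib.Helper31.OTSM.PkgEvenM.{u} := by
  intro F _ _ ι _ _ h3 X hXX W hW
  have hns : ¬ IsSquare (-1 : F) := by
    rw [FiniteField.isSquare_neg_one_iff]
    exact fun h => h h3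
  exact Cfsg.Agent.Lib.Helper37.TwoP.even_finrank_of_sq_neg_one hns X hXX W hW

end Cfsg.Agent.Lib.Helper37.OTSM
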