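-- OTSM / TWOM (S5987) package [INVM]: in a nondegenerate quadratic space of even dimension 2D
-- which is not of plus type, every involutory isometry has invariant totally singular m-spaces
-- for all m ≤ D - 1.
import Mathlib
import Cfsg.Agent.Lib.Helper31.OTSM.TwoDefs
import Cfsg.Agent.Lib.Helper24.OTS.Inv2Suf
import Cfsg.Agent.Lib.Helper37.OHyp.Geom
import Cfsg.Agent.Lib.Helper1.OHyp.Sum

set_option autoImplicit false
open scoped MatrixGroups
open Matrix

namespace Cfsg.Agent.Lib.Helper37.OTSM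

open Cfsg.Agent.Lib.Helper23.OHyp Cfsg.Agent.Lib.Helper94 Cfsg.Geo Module

universe u

/-- Witt bound: a nondegenerate subspace of dimension `≥ e + 1` (`e` even) contains a totally
singular subspace of dimension `e / 2`. -/
theorem ts_in_nd {F : Type u} [Field F] [Fintype F] {ι : Type} [Fintype ι] [DecidableEq ι]
    {Q : (ι → F) → F} (hQ : IsNondegenerateQuadraticForm Q) (h2 : (2 : F) ≠ 0)
    (U : Submodule F (ι → F)) (hU : Nd Q U) (e : ℕ) (he : Even e) (hle : e + 1 ≤ finrank F U) :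
    ∃ T : Submodule F (ι → F), T ≤ U ∧ (∀ w ∈ T, Q w = 0) ∧ 2 * finrank F T = e := by
  obtain ⟨W₀, hW₀le, -, hW₀dim, hW₀plus⟩ := Cfsg.Agent.Lib.Helper37.OHyp.pkgGeom F ι Q hQ h2 U hU
    e True he hle (fun _ => trivial)
  obtain ⟨T, hT_le, hT_ts, hT_dim⟩ := hW₀plus.mpr trivial
  exact ⟨T, hT_le.trans hW₀le, hT_ts, by rw [hT_dim, hW₀dim]⟩

/-- **[INVM]** -/
theorem pkgInvM : Cfsg.Agent.Lib.Helper31.OTSM.PkgInvM.{u} := by
  intro F _ _ ι _ _ Q hQ h2 hnp hev X hisom hXX1 m hm
  classical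
  have hXX : ∀ v, X *ᵥ (X *ᵥ v) = v := by
    intro v
    rw [Matrix.mulVec_mulVec, hXX1, Matrix.one_mulVec]
  obtain ⟨a, b, vp, vm, hab, hQp, hQm, hXp, hXm, hpp, hmm, -, -⟩ :=
    Cfsg.Agent.Lib.Helper24.OTS.exists_eigen_fam hQ h2 X hisom hXX (Fintype.card ι) ⊤
      (fun w _ => Submodule.mem_top) (Cfsg.Agent.Lib.Helper24.OTS.nd_top hQ)
      (by rw [finrank_top, Module.finrank_fintype_fun_eq_card])
  have hBx : ∀ u w, pol Q (X *ᵥ u) (X *ᵥ w) = pol Q u w := by
    intro u w
    simp only [pol, QuadraticMap.polar]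
    rw [← Matrix.mulVec_add, hisom, hisom, hisom]
  have hlip := Cfsg.Agent.Lib.Helper37.OHyp.orth_linearIndependent hQ h2 vp hQp hpp
  have hlim := Cfsg.Agent.Lib.Helper37.OHyp.orth_linearIndependent hQ h2 vm hQm hmm
  have hdp : finrank F (Submodule.span F (Set.range vp)) = a := by
    rw [finrank_span_eq_card hlip, Fintype.card_fin]
  have hdm : finrank F (Submodule.span F (Set.range vm)) = b := by
    rw [finrank_span_eq_card hlim, Fintype.card_fin]
  have hNp : Nd Q (Submodule.span F (Set.range vp)) :=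
    Cfsg.Agent.Lib.Helper37.OHyp.orth_nd hQ h2 vp hQp hpp
  have hNm : Nd Q (Submodule.span F (Set.range vm)) :=
    Cfsg.Agent.Lib.Helper37.OHyp.orth_nd hQ h2 vm hQm hmm
  have hF1 : ∀ u ∈ Submodule.span F (Set.range vp), X *ᵥ u = u := by
    intro u hu
    induction hu using Submodule.span_induction with
    | mem y hy => obtain ⟨i, rfl⟩ := hy; exact hXp i
    | zero => simp
    | add y z _ _ hy hz => rw [Matrix.mulVec_add, hy, hz]
    | smul c y _ hy => rw [Matrix.mulVec_smul, hy]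
  have hF2 : ∀ w ∈ Submodule.span F (Set.range vm), X *ᵥ w = -w := by
    intro w hw
    induction hw using Submodule.span_induction with
    | mem y hy => obtain ⟨j, rfl⟩ := hy; exact hXm j
    | zero => simp
    | add y z _ _ hy hz => rw [Matrix.mulVec_add, hy, hz, neg_add]
    | smul c y _ hy => rw [Matrix.mulVec_smul, hy, smul_neg]
  have hF6 : ∀ u ∈ Submodule.span F (Set.range vp), ∀ w ∈ Submodule.span F (Set.range vm),
      pol Q u w = 0 := by
    intro u hu w hw
    have h1 := hBx u w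
    rw [hF1 u hu, hF2 w hw, pol_neg_right hQ] at h1
    have h3 : (2 : F) * pol Q u w = 0 := by linear_combination (-1 : F) * h1
    exact (mul_eq_zero.mp h3).resolve_left h2
  have hdisj : Submodule.span F (Set.range vp) ⊓ Submodule.span F (Set.range vm) = ⊥ := by
    rw [eq_bot_iff]
    rintro u ⟨hu1, hu2⟩
    have h1 := hF1 u hu1
    have h3 := hF2 u hu2
    rw [h1] at h3
    have h4 : (2 : F) • u = 0 := by
      rw [two_smul]
      nth_rewrite 2 [h3]
      simp
    rw [Submodule.mem_bot]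
    exact (smul_eq_zero.mp h4).resolve_left h2
  have hsup : Submodule.span F (Set.range vp) ⊔ Submodule.span F (Set.range vm) = ⊤ := by
    apply Submodule.eq_top_of_finrank_eq
    have h := Submodule.finrank_sup_add_finrank_inf_eq (Submodule.span F (Set.range vp))
      (Submodule.span F (Set.range vm))
    rw [hdisj, finrank_bot, hdp, hdm] at h
    rw [Module.finrank_fintype_fun_eq_card]
    omega
  -- totally singular subspaces of the two eigenspaces, of total dimension ≥ m
  obtain ⟨Up, hUp_le, hUp_ts, Um, hUm_le, hUm_ts, hdim⟩ :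
      ∃ Up : Submodule F (ι → F), Up ≤ Submodule.span F (Set.range vp) ∧ (∀ w ∈ Up, Q w = 0) ∧
      ∃ Um : Submodule F (ι → F), Um ≤ Submodule.span F (Set.range vm) ∧ (∀ w ∈ Um, Q w = 0) ∧
        2 * m ≤ 2 * finrank F Up + 2 * finrank F Um := by
    rcases Nat.even_or_odd a with hae | hao
    · have hbe : Even b := by
        have h5 : Even (a + b) := by rw [hab]; exact hev
        exact (Nat.even_add.1 h5).1 hae
      have hS := (Cfsg.Agent.Lib.Helper1.OHyp.pkgSum F ι Q hQ h2 _ _ hNp hNm hF6).2.2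
        (by rw [hdp]; exact hae) (by rw [hdm]; exact hbe)
      rw [hsup] at hS
      have hniff : ¬ (Plus Q (Submodule.span F (Set.range vp)) ↔
          Plus Q (Submodule.span F (Set.range vm))) := fun h => hnp (hS.2 h)
      have hbot : ∀ U : Submodule F (ι → F), finrank F U = 0 → Plus Q U := by
        intro U hU
        refine ⟨⊥, bot_le, ?_, by rw [finrank_bot, hU]⟩
        intro w hw
        rw [(Submodule.mem_bot F).mp hw]
        exact Q_zero hQ
      by_cases hp : Plus Q (Submodule.span F (Set.range vp))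
      · have hnm : ¬ Plus Q (Submodule.span F (Set.range vm)) := fun h =>
          hniff ⟨fun _ => h, fun _ => hp⟩
        obtain ⟨Up, hUp_le, hUp_ts, hUp_dim⟩ := hp
        have hb0 : b ≠ 0 := fun h => hnm (hbot _ (by rw [hdm, h]))
        obtain ⟨kb, hkb⟩ := hbe
        obtain ⟨Um, hUm_le, hUm_ts, hUm_dim⟩ := ts_in_nd hQ h2 _ hNm (b - 2)
          ⟨kb - 1, by omega⟩ (by rw [hdm]; omega)
        refine ⟨Up, hUp_le, hUp_ts, Um, hUm_le, hUm_ts, ?_⟩
        rw [hUp_dim, hUm_dim, hdp]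
        omega
      · have hpm : Plus Q (Submodule.span F (Set.range vm)) := by
          by_contra h
          exact hniff ⟨fun h' => absurd h' hp, fun h' => absurd h' h⟩
        obtain ⟨Um, hUm_le, hUm_ts, hUm_dim⟩ := hpm
        have ha0 : a ≠ 0 := fun h => hp (hbot _ (by rw [hdp, h]))
        obtain ⟨ka, hka⟩ := hae
        obtain ⟨Up, hUp_le, hUp_ts, hUp_dim⟩ := ts_in_nd hQ h2 _ hNp (a - 2)
          ⟨ka - 1, by omega⟩ (by rw [hdp]; omega)
        refine ⟨Up, hUp_le, hUp_ts, Um, hUm_le, hUm_ts, ?_⟩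
        rw [hUp_dim, hUm_dim, hdm]
        omega
    · have hbo : Odd b := by
        rcases Nat.even_or_odd b with hbe | hbo
        · exfalso
          have h5 : Even (a + b) := by rw [hab]; exact hev
          have h6 := (Nat.even_add.1 h5).2 hbe
          exact (Nat.not_even_iff_odd.2 hao) h6
        · exact hbo
      obtain ⟨ka, hka⟩ := hao
      obtain ⟨kb, hkb⟩ := hbo
      obtain ⟨Up, hUp_le, hUp_ts, hUp_dim⟩ := ts_in_nd hQ h2 _ hNp (a - 1)
        ⟨ka, by omega⟩ (by rw [hdp]; omega)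
      obtain ⟨Um, hUm_le, hUm_ts, hUm_dim⟩ := ts_in_nd hQ h2 _ hNm (b - 1)
        ⟨kb, by omega⟩ (by rw [hdm]; omega)
      refine ⟨Up, hUp_le, hUp_ts, Um, hUm_le, hUm_ts, ?_⟩
      rw [hUp_dim, hUm_dim]
      omega
  obtain ⟨Up', hUp'le, hUp'dim⟩ := Cfsg.Agent.Lib.Helper24.OTS.exists_le_finrank_eq Up
    (min m (finrank F Up)) (min_le_right _ _)
  obtain ⟨Um', hUm'le, hUm'dim⟩ := Cfsg.Agent.Lib.Helper24.OTS.exists_le_finrank_eq Um
    (m - min m (finrank F Up)) (by omega)
  have hUp'sp : Up' ≤ Submodule.span F (Set.range vp) := hUp'le.trans hUp_le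
  have hUm'sp : Um' ≤ Submodule.span F (Set.range vm) := hUm'le.trans hUm_le
  refine ⟨Up' ⊔ Um', ?_, ?_, ?_⟩
  · have hd : Up' ⊓ Um' = ⊥ := by
      rw [eq_bot_iff, ← hdisj]
      exact inf_le_inf hUp'sp hUm'sp
    have h := Submodule.finrank_sup_add_finrank_inf_eq Up' Um'
    rw [hd, finrank_bot, hUp'dim, hUm'dim] at h
    omega
  · intro w hw
    obtain ⟨u, hu, w', hw', rfl⟩ := Submodule.mem_sup.mp hw
    rw [Q_add (Q := Q), hUp_ts u (hUp'le hu), hUm_ts w' (hUm'le hw'),
      hF6 u (hUp'sp hu) w' (hUm'sp hw')]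
    simp
  · rw [Submodule.map_le_iff_le_comap]
    intro w hw
    rw [Submodule.mem_comap, Matrix.toLin'_apply]
    obtain ⟨u, hu, w', hw', rfl⟩ := Submodule.mem_sup.mp hw
    rw [Matrix.mulVec_add, hF1 u (hUp'sp hu), hF2 w' (hUm'sp hw')]
    exact Submodule.add_mem _ (Submodule.mem_sup_left hu)
      (Submodule.neg_mem _ (Submodule.mem_sup_right hw'))

end Cfsg.Agent.Lib.Helper37.OTSM
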