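-- OTSM / TWOM (S5987) package [NEGBM]: form-generic version of TWOP [NEGB]
-- (helper40's negB_step is already generic in the index type and the quadratic form).
import Mathlib
import Cfsg.Agent.Lib.Helper31.OTSM.TwoDefs
import Cfsg.Agent.Lib.Helper40.TwoP.NegB

set_option autoImplicit false

namespace Cfsg.Agent.Lib.Helper37.OTSM

open Matrix Module

universe u

/-- A nondegenerate quadratic form given as a function is a `QuadraticForm` with nondegenerate
polar form (same bridge as `Helper44.exists_quadraticForm_of_geo`, restated here to keep the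
import closure small). -/
theorem exists_qf_of_geo {F : Type u} [Field F] {ι : Type} {Q : (ι → F) → F}
    (hQ : Cfsg.Geo.IsNondegenerateQuadraticForm Q) :
    ∃ Q' : QuadraticForm F (ι → F), ⇑Q' = Q ∧ (QuadraticMap.polarBilin Q').Nondegenerate := by
  refine ⟨QuadraticMap.ofPolar Q (fun a x => by rw [hQ.smul, smul_eq_mul, pow_two])
    (fun x x' y => hQ.polar_bilinear.add_left x x' y)
    (fun a x y => by rw [hQ.polar_bilinear.smul_left, smul_eq_mul]), rfl, ?_, ?_⟩
  · intro x hx
    by_contra hx0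
    obtain ⟨y, hy⟩ := (hQ.nondegenerate x hx0).2
    exact hy (hx y)
  · intro y hy
    by_contra hy0
    obtain ⟨x, hx⟩ := (hQ.nondegenerate y hy0).1
    exact hx (hy x)

/-- **[NEGBM]** -/
theorem pkgNegBM : Cfsg.Agent.Lib.Helper31.OTSM.PkgNegBM.{u} := by
  intro F _ _ ι _ _ Q hQ hq X hX hXX m hm hdim
  classical
  have hns : ¬ IsSquare (-1 : F) := by
    rw [FiniteField.isSquare_neg_one_iff]
    exact fun h => h hq
  obtain ⟨Q', hQ'coe, hQ'nd⟩ := exists_qf_of_geo hQ
  have hX' : ∀ v, Q' (X *ᵥ v) = Q' v := fun v => by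
    rw [hQ'coe]
    exact hX v
  obtain ⟨j, rfl⟩ := hm
  have key : ∀ j : ℕ, 2 * (j + j) + 2 ≤ Fintype.card ι →
      ∃ W : Submodule F (ι → F), finrank F W = j + j ∧ (∀ w ∈ W, Q' w = 0) ∧
        W.map (Matrix.toLin' X) ≤ W := by
    intro j
    induction j with
    | zero =>
      intro _
      refine ⟨⊥, by simp, ?_, by simp⟩
      intro w hw
      rw [(Submodule.mem_bot F).1 hw]
      exact map_zero Q'
    | succ j ih =>
      intro hj
      obtain ⟨W, hW, hts, hinv⟩ := ih (by omega)
      obtain ⟨W', h1, h2, h3⟩ := Cfsg.Agent.Lib.Helper40.TwoP.negB_step Q' hQ'nd hns X hX' hXX W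
        hts hinv (by rw [hW]; omega)
      exact ⟨W', by rw [h1, hW]; omega, h2, h3⟩
  obtain ⟨W, hW, hts, hinv⟩ := key j hdim
  refine ⟨W, hW, fun w hw => ?_, hinv⟩
  rw [← hQ'coe]
  exact hts w hw

end Cfsg.Agent.Lib.Helper37.OTSM
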