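-- OTSM (S5987) packages [WCMB] and [WCMA]: Witt index of C in a space not of plus type,
-- all characteristics (via the char-free SUME / GEOME / TSBD packages).
import Mathlib
import Cfsg.Agent.Lib.Helper31.OTSM.Defs
import Cfsg.Agent.Lib.Helper1.OElp.SumE
import Cfsg.Agent.Lib.Helper23.PHyp.GeomE
import Cfsg.Agent.Lib.Helper94.OTSP.TsBd
import Cfsg.Agent.Lib.Helper87.OTSP.WCa

set_option autoImplicit false
open scoped MatrixGroups
open Matrix

namespace Cfsg.Agent.Lib.Helper37.OTSM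

open Cfsg.Agent.Lib.Helper23.OHyp Cfsg.Agent.Lib.Helper99.OTSP Cfsg.Geo Module

universe u

section wc

variable {F : Type u} [Field F] {ι : Type} [Fintype ι] [DecidableEq ι] {Q : (ι → F) → F}

/-- both summands of an orthogonal decomposition of the whole space are nondegenerate -/
theorem nd_of_perp_compl (hQ : IsNondegenerateQuadraticForm Q) {C N : Submodule F (ι → F)}
    (hPerp : Perp Q C N) (hCN : IsCompl C N) : Nd Q C ∧ Nd Q N := by
  constructor
  · intro w hw hw0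
    obtain ⟨⟨x, hx⟩, -⟩ := hQ.nondegenerate w hw0
    have hx' : x ∈ C ⊔ N := by
      rw [hCN.sup_eq_top]
      trivial
    obtain ⟨c, hc, n, hn, rfl⟩ := Submodule.mem_sup.1 hx'
    have h1 : QuadraticMap.polar Q (c + n) w = QuadraticMap.polar Q c w := by
      rw [hQ.polar_bilinear.add_left, QuadraticMap.polar_comm Q n w, hPerp w hw n hn, add_zero]
    rw [h1] at hx
    exact ⟨⟨c, hc, hx⟩, ⟨c, hc, by rwa [QuadraticMap.polar_comm]⟩⟩
  · intro w hw hw0
    obtain ⟨⟨x, hx⟩, -⟩ := hQ.nondegenerate w hw0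
    have hx' : x ∈ C ⊔ N := by
      rw [hCN.sup_eq_top]
      trivial
    obtain ⟨c, hc, n, hn, rfl⟩ := Submodule.mem_sup.1 hx'
    have h1 : QuadraticMap.polar Q (c + n) w = QuadraticMap.polar Q n w := by
      rw [hQ.polar_bilinear.add_left, hPerp c hc w hw, zero_add]
    rw [h1] at hx
    exact ⟨⟨n, hn, hx⟩, ⟨n, hn, by rwa [QuadraticMap.polar_comm]⟩⟩

end wc

/-- **[WCMB]** -/
theorem pkgWCMb : Cfsg.Agent.Lib.Helper31.OTSM.PkgWCMb.{u} := by
  intro F _ _ ι _ _ Q hQ hnp hev C N hPerp hCN hnpN hNev e he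
  classical
  obtain ⟨hNdC, hNdN⟩ := nd_of_perp_compl hQ hPerp hCN
  have hCNdim : finrank F C + finrank F N = finrank F (ι → F) :=
    Submodule.finrank_add_eq_of_isCompl hCN
  rw [Module.finrank_fintype_fun_eq_card] at hCNdim
  have hCev : Even (finrank F C) := by
    have h1 : Even (finrank F C + finrank F N) := by rw [hCNdim]; exact hev
    exact (Nat.even_add.1 h1).2 hNev
  have hS := (Cfsg.Agent.Lib.Helper1.OElp.pkgSumE F ι Q hQ C N hNdC hNdN hPerp).2.2 hCev hNev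
  rw [hCN.sup_eq_top] at hS
  have hPC : Plus Q C := by
    by_contra h
    exact hnp (hS.2 ⟨fun h' => absurd h' h, fun h' => absurd h' hnpN⟩)
  obtain ⟨T, hT_le, hT_ts, hT_dim⟩ := hPC
  obtain ⟨U, hU, hUdim⟩ := Cfsg.Agent.Lib.Helper87.OTSP.exists_le_finrank_eq' T e (by omega)
  exact ⟨U, hU.trans hT_le, fun u hu => hT_ts u (hU hu), hUdim⟩

/-- **[WCMA]** -/
theorem pkgWCMa : Cfsg.Agent.Lib.Helper31.OTSM.PkgWCMa.{u} := by
  intro F _ _ ι _ _ Q hQ hnp hev C N hPerp hCN hPN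
  classical
  obtain ⟨hNdC, hNdN⟩ := nd_of_perp_compl hQ hPerp hCN
  have hCNdim : finrank F C + finrank F N = finrank F (ι → F) :=
    Submodule.finrank_add_eq_of_isCompl hCN
  rw [Module.finrank_fintype_fun_eq_card] at hCNdim
  have hNev : Even (finrank F N) := by
    obtain ⟨L, -, -, hL⟩ := hPN
    exact ⟨finrank F L, by rw [← hL]; ring⟩
  have hCev : Even (finrank F C) := by
    have h1 : Even (finrank F C + finrank F N) := by rw [hCNdim]; exact hev
    exact (Nat.even_add.1 h1).2 hNev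
  have hS := (Cfsg.Agent.Lib.Helper1.OElp.pkgSumE F ι Q hQ C N hNdC hNdN hPerp).2.2 hCev hNev
  rw [hCN.sup_eq_top] at hS
  have hnPC : ¬ Plus Q C := fun h => hnp (hS.2 ⟨fun _ => hPN, fun _ => h⟩)
  constructor
  · intro U hUC hUts
    have h1 := Cfsg.Agent.Lib.Helper94.OTSP.pkgTsBd F ι Q hQ C U hNdC hUC hUts
    have h2 : 2 * finrank F U ≠ finrank F C := fun h => hnPC ⟨U, hUC, hUts, h⟩
    obtain ⟨k, hk⟩ := hCev
    omega
  · intro e he
    obtain ⟨W₀, hW₀le, -, hW₀dim, hW₀plus⟩ := Cfsg.Agent.Lib.Helper23.PHyp.pkgGeomE F ι Q hQ C hNdC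
      (2 * e) True (even_two_mul e) (by omega) (fun _ => trivial)
    obtain ⟨T, hT_le, hT_ts, hT_dim⟩ := hW₀plus.mpr trivial
    exact ⟨T, hT_le.trans hW₀le, hT_ts, by omega⟩

end Cfsg.Agent.Lib.Helper37.OTSM
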